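import Mathlib
import Cfsg.Agent.S4717
import Cfsg.Agent.Block.Rank2
import Cfsg.Agent.Block.Kernel
import Cfsg.Agent.Block.Height
import Cfsg.Agent.Char.Virtual
import Cfsg.Agent.Char.Kernel

set_option autoImplicit false

namespace Cfsg.Agent.FGS

open Cfsg Cfsg.Agent.Char Cfsg.Agent.Block
open scoped ComplexConjugate

namespace DefZ

theorem sq_bound {P : Type*} [Group P] [Fintype P] [IsMulCommutative P] {θ : P → ℂ}
    (hθ : IsGeneralizedCharacter P θ) {d c : ℤ} (hd : θ 1 = d)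
    (hc : ∀ l : IrrCharacter P, ∃ n : ℤ, classInner θ l = c * n) (q : ℤ) :
    ((Nat.card P : ℝ) * (c * (2 * q + 1) * d - Nat.card P * (c ^ 2 * q * (q + 1)))) ≤
      ∑ x, ‖θ x‖ ^ 2 := by
  classical
  letI : Fintype (IrrCharacter P) := fintypeIrr
  choose n hn using hc
  have h1 := classInner_self_re θ
  rw [classInner_self_re_eq_sum (isGenChar_classFun hθ)] at h1
  have h2 := classFun_apply_eq_sum (isGenChar_classFun hθ) 1
  have hl : ∀ l : IrrCharacter P, (l : P → ℂ) 1 = 1 := fun l =>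
    (isIrr_degree_one_iff l.2).2 (by
      rw [(commutator_eq_bot_iff_center_eq_top P).2 (by
        rw [eq_top_iff]; intro x _; exact Subgroup.mem_center_iff.2 fun g => mul_comm' g x)]
      exact bot_le)
  simp only [hn, hl, mul_one] at h1 h2
  rw [hd] at h2
  have h3 : d = ∑ l, c * n l := by exact_mod_cast h2
  have h4 : ∀ l, ‖(c : ℂ) * n l‖ ^ 2 = ((c * n l : ℤ) : ℝ) ^ 2 := fun l => by
    rw [← Int.cast_mul, Complex.norm_intCast, sq_abs]
  simp only [h4] at h1
  have hpos : (0 : ℝ) < Nat.card P := by exact_mod_cast Nat.card_pos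
  have h5 : ∑ x, ‖θ x‖ ^ 2 = Nat.card P * ∑ l, ((c * n l : ℤ) : ℝ) ^ 2 := by
    rw [h1]; field_simp
  rw [h5]
  refine mul_le_mul_of_nonneg_left ?_ hpos.le
  have h6 : c * (2 * q + 1) * d - Nat.card P * (c ^ 2 * q * (q + 1)) ≤ ∑ l, (c * n l) ^ 2 := by
    rw [h3, ← card_irr_of_comm, Nat.card_eq_fintype_card, Finset.mul_sum, ← Finset.card_univ,
      ← nsmul_eq_mul, ← Finset.sum_const, ← Finset.sum_sub_distrib]
    refine Finset.sum_le_sum fun l _ => ?_
    have : 0 ≤ (n l - q) * (n l - (q + 1)) := by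
      rcases le_or_gt (n l) q with h | h
      · exact mul_nonneg_of_nonpos_of_nonpos (by omega) (by omega)
      · exact mul_nonneg (by omega) (by omega)
    nlinarith [mul_nonneg (sq_nonneg c) this]
  exact_mod_cast h6

theorem mult_dvd {G : Type*} [Group G] (P Q : Subgroup G) [Fintype P] [Finite Q]
    (hPQ : ∀ x ∈ P, ∀ y ∈ Q, x * y = y * x) {χ : G → ℂ} (hχ : IsGeneralizedCharacter G χ)
    (hv : ∀ x ∈ P, ∀ y ∈ Q, y ≠ 1 → χ (x * y) = 0) (l : IrrCharacter P) :
    ∃ n : ℤ, classInner (fun x : P => χ x) l = (Nat.card Q : ℤ) * n := by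
  classical
  haveI := Fintype.ofFinite Q
  let f : P × Q →* G := P.subtype.noncommCoprod Q.subtype fun x y => hPQ x x.2 y y.2
  obtain ⟨n, hn⟩ := classInner_isGenChar_int (isGenChar_comp f hχ)
    (isGenChar_comp (MonoidHom.fst P Q) (irr_isGenChar l))
  refine ⟨n, ?_⟩
  rw [← hn, classInner_def, classInner_def, Fintype.sum_prod_type, Nat.card_prod]
  have h1 : ∀ x : P, ∑ y : Q, χ (f (x, y)) * conj (l.1 (MonoidHom.fst P Q (x, y))) =
      χ x * conj (l.1 x) := fun x => by
    rw [Finset.sum_eq_single 1]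
    · have : f (x, 1) = x := mul_one (x : G)
      rw [this]; rfl
    · intro y _ hy
      have : χ (f (x, y)) = 0 := hv x x.2 y y.2 fun h => hy (Subtype.ext h)
      rw [this, zero_mul]
    · simp
  simp only [h1]
  have : (Nat.card Q : ℂ) ≠ 0 := by exact_mod_cast Nat.card_pos.ne'
  have : (Nat.card P : ℂ) ≠ 0 := by exact_mod_cast Nat.card_pos.ne'
  push_cast; field_simp

theorem count {G : Type*} [Group G] [Fintype G] (P : Subgroup G) [Fintype P] {p : ℕ} (hp : p.Prime)
    (hP : Nat.card P = p) {f : G → ℝ} (hf : ∀ g h, f (h * g * h⁻¹) = f g) (h0 : ∀ g, 0 ≤ f g) :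
    (Nat.card G : ℝ) * (∑ x : P, f x - f 1) ≤
      Nat.card (Subgroup.normalizer (P : Set G)) * ∑ g with orderOf g = p, f g := by
  classical
  haveI := Fact.mk hp
  have ho : ∀ x : P, x ≠ 1 → orderOf (x : G) = p := fun x hx => by
    rw [Subgroup.orderOf_coe]
    exact orderOf_eq_prime (by rw [← hP]; exact pow_card_eq_one') hx
  have h1 : ∑ x : P, f x - f 1 = ∑ x : P with x ≠ 1, f x := by
    rw [Finset.filter_ne', Finset.sum_erase_eq_sub (Finset.mem_univ _)]; simp
  let T : Finset (G × P) := Finset.univ ×ˢ (Finset.univ.filter fun x : P => x ≠ 1)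
  let φ : G × P → G := fun a => a.1 * a.2 * a.1⁻¹
  have h2 : (Nat.card G : ℝ) * (∑ x : P with x ≠ 1, f x) = ∑ a ∈ T, f (φ a) := by
    rw [Finset.sum_product]
    simp only [φ, hf, Finset.sum_const, Finset.card_univ, nsmul_eq_mul, Nat.card_eq_fintype_card]
  have hm : ∀ a ∈ T, φ a ∈ Finset.univ.filter fun g : G => orderOf g = p := fun a ha => by
    have := (Finset.mem_filter.1 (Finset.mem_product.1 ha).2).2
    simp only [Finset.mem_filter, Finset.mem_univ, true_and, φ]
    rw [← ho _ this]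
    exact (MulAut.conj a.1).orderOf_eq a.2
  rw [h1, h2, ← Finset.sum_fiberwise_of_maps_to hm, Finset.mul_sum]
  refine Finset.sum_le_sum fun g hg => ?_
  rw [Finset.sum_congr rfl fun a ha => by rw [(Finset.mem_filter.1 ha).2], Finset.sum_const,
    nsmul_eq_mul]
  refine mul_le_mul_of_nonneg_right ?_ (h0 g)
  rcases (T.filter fun a => φ a = g).eq_empty_or_nonempty with he | ⟨a0, ha0⟩
  · rw [he]; simp
  have hz : ∀ a ∈ T, Subgroup.zpowers (a.2 : G) = P := fun a ha => by
    have := (Finset.mem_filter.1 (Finset.mem_product.1 ha).2).2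
    refine Subgroup.eq_of_le_of_card_ge (Subgroup.zpowers_le.2 a.2.2) ?_
    rw [Nat.card_zpowers, ho _ this, hP]
  have key : ∀ a ∈ T.filter fun a => φ a = g, a0.1⁻¹ * a.1 ∈ Subgroup.normalizer (P : Set G) := by
    intro a ha
    obtain ⟨ha1, ha2⟩ := Finset.mem_filter.1 ha
    obtain ⟨hb1, hb2⟩ := Finset.mem_filter.1 ha0
    refine Subgroup.mem_normalizer_fintype fun n hn => ?_
    rw [← hz a ha1] at hn
    obtain ⟨k, rfl⟩ := Subgroup.mem_zpowers_iff.1 hn
    have : a0.1⁻¹ * a.1 * (a.2 : G) * (a0.1⁻¹ * a.1)⁻¹ = a0.2 := by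
      have e : a.1 * (a.2 : G) * a.1⁻¹ = a0.1 * a0.2 * a0.1⁻¹ := ha2.trans hb2.symm
      calc _ = a0.1⁻¹ * (a.1 * (a.2 : G) * a.1⁻¹) * a0.1 := by group
        _ = _ := by rw [e]; group
    rw [← conj_zpow, this]
    exact P.zpow_mem a0.2.2 k
  have : (T.filter fun a => φ a = g).card ≤ Nat.card (Subgroup.normalizer (P : Set G)) := by
    rw [← Nat.card_eq_finsetCard]
    refine Nat.card_le_card_of_injective (fun a => ⟨a0.1⁻¹ * a.1.1, key a.1 a.2⟩) ?_
    intro a b hab
    have e1 : a.1.1 = b.1.1 := by simpa using hab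
    have e2 : φ a.1 = φ b.1 := (Finset.mem_filter.1 a.2).2.trans (Finset.mem_filter.1 b.2).2.symm
    refine Subtype.ext (Prod.ext e1 (Subtype.ext ?_))
    simpa [φ, e1] using e2
  exact_mod_cast this

/-- lower bound for the contribution of the elements of prime order `p` to the norm -/
theorem bound {G : Type*} [Group G] [Fintype G] (P Q : Subgroup G) {p : ℕ} (hp : p.Prime)
    (hP : Nat.card P = p) {c N : ℕ} (hQ : Nat.card Q = c)
    (hN : Nat.card (Subgroup.normalizer (P : Set G)) ≤ N)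
    (hPQ : ∀ x ∈ P, ∀ y ∈ Q, x * y = y * x) {χ : G → ℂ} (hχ : IsGeneralizedCharacter G χ)
    (hv : ∀ x ∈ P, ∀ y ∈ Q, y ≠ 1 → χ (x * y) = 0) {d : ℕ} (hd : χ 1 = d) (q : ℤ) :
    (Nat.card G : ℝ) * (p * (c * (2 * q + 1) * d - p * (c ^ 2 * q * (q + 1))) - d ^ 2) ≤
      N * ∑ g with orderOf g = p, ‖χ g‖ ^ 2 := by
  classical
  haveI := Fintype.ofFinite P
  haveI := Fact.mk hp
  haveI : IsCyclic P := isCyclic_of_prime_card hP
  have h1 := sq_bound (P := P) (isGenChar_res P hχ) (d := d) (c := c) (by simpa using hd)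
    (fun l => by have := mult_dvd P Q hPQ hχ hv l; rwa [hQ] at this) q
  have h2 := count P hp hP (f := fun g => ‖χ g‖ ^ 2)
    (fun g h => by rw [isGenChar_classFun hχ g h]) (fun g => by positivity)
  rw [hP] at h1
  simp only [hd, Complex.norm_natCast] at h2
  have h3 : (0 : ℝ) ≤ ∑ g with orderOf g = p, ‖χ g‖ ^ 2 :=
    Finset.sum_nonneg fun g _ => by positivity
  have h4 : (Nat.card (Subgroup.normalizer (P : Set G)) : ℝ) ≤ N := by exact_mod_cast hN
  refine le_trans ?_ (h2.trans (mul_le_mul_of_nonneg_right h4 h3))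
  refine mul_le_mul_of_nonneg_left ?_ (by positivity)
  push_cast at h1
  linarith

theorem single {G : Type*} [Group G] [Finite G] {p : ℕ} [Fact p.Prime] {M : Ideal AlgInt}
    (hM : IsPModular p M)
    (h1 : ∀ y : G, orderOf y = p → ∃ Q : Subgroup (Subgroup.centralizer ({y} : Set G)),
      Q.Normal ∧ IsPGroup p Q ∧
        IsPGroup p (Subgroup.centralizer (Q : Set (Subgroup.centralizer ({y} : Set G)))))
    (h2 : ∀ χ : IrrCharacter G,
      ¬ (Nat.card G).factorization p ≤ (charDegree (χ : G → ℂ)).factorization p)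
    (χ ψ : IrrCharacter G) : SameBlock M (χ : G → ℂ) ψ := by
  have key := (Cfsg.Agent.S4717.result (G := G) p M hM 1).2 one_pos (fun y hy B hB hne => by
    obtain ⟨Q, hQ, h3, h4⟩ := h1 y hy
    exact absurd ((block_eq_univ_of_centralizer_le hM h3 h4 hB).trans
      (block_eq_univ_of_centralizer_le hM h3 h4 isPBlock_principalBlock).symm) hne)
  have hb : ∀ θ : IrrCharacter G, blockOf M (θ : G → ℂ) = principalBlock M G := fun θ => by
    by_contra hne
    have := key _ (isPBlock_blockOf θ) hne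
    exact h2 θ (eq_singleton_of_defect_zero hM (isPBlock_blockOf θ) (by omega)
      (mem_blockOf.2 (sameBlock_refl hM θ))).2
  exact mem_blockOf.1 (by rw [hb χ, ← hb ψ]; exact mem_blockOf.2 (sameBlock_refl hM ψ))

end DefZ

end Cfsg.Agent.FGS
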