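import Mathlib
import Cfsg.Agent.FGS.DefZ
import Cfsg.Agent.Golay.Loc2
import Cfsg.Agent.Golay.Six
import Cfsg.Agent.Golay.Classes

set_option autoImplicit false

namespace Cfsg.Agent.FGS

open Cfsg Cfsg.Agent.Golay Finset
open scoped Pointwise

namespace MB

theorem smul_eq_of_maps {g : P24} {S : Finset GolayPt} (h : ∀ a ∈ S, g a ∈ S) : g • S = S := by
  refine eq_of_subset_of_card_le (fun a ha => ?_) (card_smul_finset _ _).ge
  obtain ⟨b, hb, rfl⟩ := mem_smul_finset.1 ha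
  exact h b hb

theorem fx_mod {g : P24} {p : ℕ} (hp : p.Prime) (hg : g ^ p = 1) {S : Finset GolayPt}
    (h : ∀ a ∈ S, g a ∈ S) : (Fx g ∩ S).card ≡ S.card [MOD p] := by
  haveI := Fact.mk hp
  have h' : ∀ a, g a ∈ S ↔ a ∈ S := mem_iff_of_smul_eq (smul_eq_of_maps h)
  let f : Equiv.Perm {a // a ∈ S} := g.subtypePerm h'
  have hf : f ^ p ^ 1 = 1 := by
    ext a
    rw [pow_one, Equiv.Perm.subtypePerm_pow]
    simp [hg]
  have h1 := Equiv.Perm.card_compl_support_modEq hf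
  rw [Fintype.card_coe] at h1
  convert h1 using 1
  refine (card_bij (fun a _ => a.1) (fun a ha => ?_) (fun a _ b _ e => Subtype.ext e)
    fun b hb => ?_).symm
  · rw [mem_compl, Equiv.Perm.notMem_support] at ha
    exact mem_inter.2 ⟨mem_Fx.2 (congrArg Subtype.val ha), a.2⟩
  · refine ⟨⟨b, (mem_inter.1 hb).2⟩, ?_, rfl⟩
    rw [mem_compl, Equiv.Perm.notMem_support]
    exact Subtype.ext (mem_Fx.1 (mem_inter.1 hb).1)

theorem card_dvd_of_semi (K : Subgroup P24) {S : Finset GolayPt} (hS : ∀ g ∈ K, ∀ a ∈ S, g a ∈ S)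
    (hf : ∀ g ∈ K, ∀ a ∈ S, g a = a → g = 1) : Nat.card K ∣ S.card := by
  let φ := permHom K S fun g hg => smul_eq_of_maps (hS g hg)
  letI : MulAction K S := MulAction.compHom S φ
  have e := MulAction.selfEquivOrbitsQuotientProd (G := K) (X := S) fun b => by
    rw [eq_bot_iff]
    intro g hg
    have : φ g b = b := hg
    exact Subtype.ext (hf g g.2 b b.2 (congrArg Subtype.val this))
  have := Nat.card_congr e
  rw [Nat.card_prod, Nat.card_eq_fintype_card, Fintype.card_coe] at this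
  exact this ▸ Dvd.intro_left _ rfl

theorem maps_Fx {c x : P24} (h : c * x = x * c) : ∀ a ∈ Fx x, c a ∈ Fx x := fun a ha => by
  rw [mem_Fx] at *
  rw [← Equiv.Perm.mul_apply, ← h, Equiv.Perm.mul_apply, ha]

theorem maps_compl {c : P24} {S : Finset GolayPt} (h : ∀ a ∈ S, c a ∈ S) :
    ∀ a ∈ Sᶜ, c a ∈ Sᶜ := fun a ha => by
  rw [mem_compl] at *
  rwa [mem_iff_of_smul_eq (smul_eq_of_maps h)]

theorem fx_eq {c x : P24} {p : ℕ} (hp : p.Prime) (hx : x ^ p = 1) (h9 : 9 ≤ (Fx x).card + p)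
    (hc : c ∈ M24) (h1 : c ≠ 1) (h : c * x = x * c) (hf : ∀ a ∈ Fx x, c a = a) : Fx c = Fx x := by
  have hsub : Fx x ⊆ Fx c := fun a ha => mem_Fx.2 (hf a ha)
  have h2 := fx_mod hp hx (S := Fx c ∩ (Fx x)ᶜ) fun a ha => mem_inter.2
    ⟨maps_Fx h.symm a (mem_inter.1 ha).1, maps_compl (maps_Fx rfl) a (mem_inter.1 ha).2⟩
  have h3 : Fx x ∩ (Fx c ∩ (Fx x)ᶜ) = ∅ := by
    ext a; simp only [mem_inter, mem_compl, notMem_empty]; tauto
  rw [h3, card_empty] at h2
  have h4 : (Fx c).card = (Fx x).card + (Fx c ∩ (Fx x)ᶜ).card := by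
    rw [← sdiff_eq_inter_compl, add_comm, card_sdiff_add_card_eq_card hsub]
  have h5 : (Fx c).card < 9 := by
    by_contra h6; exact h1 (eq_one_of_nine hc (by omega))
  have h6 : (Fx c ∩ (Fx x)ᶜ).card = 0 :=
    Nat.eq_zero_of_dvd_of_lt ((Nat.modEq_zero_iff_dvd).1 h2.symm) (by omega)
  exact (eq_of_subset_of_card_le hsub (by omega)).symm

theorem cent_dvd (H : Subgroup P24) {x : P24} {p : ℕ} (hp : p.Prime) (hx : x ^ p = 1)
    (h9 : 9 ≤ (Fx x).card + p) (h0 : 0 < (Fx x).card) (h8 : (Fx x).card ≠ 8)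
    (hH : ∀ g ∈ H, g ∈ M24 ∧ g * x = x * g) (F : Finset GolayPt)
    (hF : ∀ g ∈ H, ∀ a ∈ F, g a = a) :
    ∃ k, k ∣ 24 - (Fx x).card ∧ ¬ 2 ∣ k ∧ Nat.card H ∣ k * ((Fx x \ F).card).factorial := by
  have hD : ∀ g ∈ H, ∀ a ∈ Fx x \ F, g a ∈ Fx x \ F := fun g hg a ha => by
    rw [sdiff_eq_inter_compl, mem_inter] at *
    exact ⟨maps_Fx (hH g hg).2 a ha.1, maps_compl (fun b hb => by rwa [hF g hg b hb]) a ha.2⟩
  let φ := permHom H (Fx x \ F) fun g hg => smul_eq_of_maps (hD g hg)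
  let K := φ.ker.map H.subtype
  have hK : ∀ g ∈ K, g ∈ H ∧ ∀ a ∈ Fx x, g a = a := by
    rintro _ ⟨g, hg, rfl⟩
    refine ⟨g.2, fun a ha => ?_⟩
    by_cases h : a ∈ F
    · exact hF g g.2 a h
    · exact (mem_ker_permHom _ g).1 hg a (mem_sdiff.2 ⟨ha, h⟩)
  have hK' : ∀ g ∈ K, g ≠ 1 → Fx g = Fx x := fun g hg h1 =>
    fx_eq hp hx h9 (hH g (hK g hg).1).1 h1 (hH g (hK g hg).1).2 (hK g hg).2
  refine ⟨Nat.card K, ?_, fun h2 => ?_, ?_⟩
  · have := card_dvd_of_semi K (S := (Fx x)ᶜ)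
      (fun g hg => maps_compl (maps_Fx (hH g (hK g hg).1).2)) (fun g hg a ha e => by
        by_contra h1
        exact mem_compl.1 ha (hK' g hg h1 ▸ mem_Fx.2 e))
    rwa [card_compl, card_golayPt] at this
  · obtain ⟨g, hg⟩ := exists_prime_orderOf_dvd_card' 2 h2
    rw [← Subgroup.orderOf_coe] at hg
    have h1 : (g : P24) ≠ 1 := fun e => by rw [e, orderOf_one] at hg; omega
    have e := hK' g g.2 h1
    have := Fx_involution (hH g (hK g g.2).1).1 hg (by rw [e]; exact card_pos.1 h0)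
    rw [e] at this
    exact h8 ((mem_octads _).1 this).2
  · rw [Subgroup.card_map_of_injective H.subtype_injective, ← card_perm_finset,
      ← φ.ker.card_mul_index, Subgroup.index_ker]
    exact Nat.mul_dvd_mul_left _ (Subgroup.card_subgroup_dvd_card _)

theorem norm_facts {G : Type*} [Group G] [Finite G] {p : ℕ} (hp : p.Prime) (P : Subgroup G)
    (hP : Nat.card P = p) (h1 : (Nat.card G).factorization p = 1) :
    Nat.card (Subgroup.normalizer (P : Set G)) ∣ Nat.card G ∧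
      (Nat.card G / Nat.card (Subgroup.normalizer (P : Set G))) % p = 1 ∧
      Nat.card (Subgroup.normalizer (P : Set G)) ∣
        Nat.card (Subgroup.centralizer (P : Set G)) * (p - 1) := by
  haveI := Fact.mk hp
  refine ⟨Subgroup.card_subgroup_dvd_card _, ?_, ?_⟩
  · let S : Sylow p G := Sylow.ofCard P (by rw [h1, pow_one, hP])
    have h2 := card_sylow_modEq_one p G
    rw [S.card_eq_index_normalizer] at h2
    have h3 : (Subgroup.normalizer (P : Set G)).index ≡ 1 [MOD p] := h2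
    rw [← (Subgroup.normalizer (P : Set G)).card_mul_index, Nat.mul_div_cancel_left _ Nat.card_pos]
    rw [h3, Nat.mod_eq_of_lt hp.one_lt]
  · haveI : IsCyclic P := isCyclic_of_prime_card hP
    rw [← P.normalizerMonoidHom.ker.card_mul_index, Subgroup.index_ker,
      Subgroup.normalizerMonoidHom_ker,
      Nat.card_congr (Subgroup.subgroupOfEquivOfLe (Subgroup.centralizer_le_normalizer _)).toEquiv]
    refine Nat.mul_dvd_mul_left _ ((Subgroup.card_subgroup_dvd_card _).trans ?_)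
    rw [IsCyclic.card_mulAut, hP, Nat.totient_prime hp]

theorem norm_le {G : Subgroup P24} (hG : G ≤ M24) (F : Finset GolayPt)
    (hF : ∀ g ∈ G, ∀ a ∈ F, g a = a) {p c n k B : ℕ} (hp : p.Prime) (hc : 24 % p = c)
    (h9 : 9 ≤ c + p) (h0 : 0 < c) (h8 : c ≠ 8) (hn : Nat.card G = n) (h1 : n.factorization p = 1)
    (hk : ∀ j ∈ (24 - c).divisors, ¬ 2 ∣ j → j ∣ k)
    (hB : ∀ N ∈ (k * (c - F.card).factorial * (p - 1)).divisors, N ∣ n → (n / N) % p = 1 → N ≤ B)
    (hk0 : k ≠ 0) {x : G} (hx : orderOf x = p) :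
    Nat.card (Subgroup.normalizer (Subgroup.zpowers x : Set G)) ≤ B := by
  have hxp : (x : P24) ^ p = 1 := by
    rw [← Subgroup.coe_pow, ← hx, pow_orderOf_eq_one]; rfl
  have hx1 : (x : P24) ≠ 1 := fun e => by
    rw [← Subgroup.orderOf_coe, e, orderOf_one] at hx; exact hp.one_lt.ne hx
  have hc' : (Fx x).card = c := by
    have h2 := fx_mod hp hxp (S := univ) fun a _ => mem_univ _
    rw [inter_univ, card_univ, card_golayPt] at h2
    have h3 : (Fx x).card < 9 := by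
      by_contra h4; exact hx1 (eq_one_of_nine (hG x.2) (by omega))
    have h4 : (Fx x).card % p = c := Eq.trans h2 hc
    have h5 := Nat.mod_add_div (Fx x).card p
    rw [h4] at h5
    rcases Nat.eq_zero_or_pos ((Fx x).card / p) with h6 | h6
    · rw [h6] at h5; omega
    · have := Nat.mul_le_mul_left p h6
      omega
  obtain ⟨j, hj1, hj2, hj3⟩ := cent_dvd
    ((Subgroup.centralizer (Subgroup.zpowers x : Set G)).map G.subtype) hp hxp (by omega)
    (by omega) (by omega) (by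
      rintro _ ⟨g, hg, rfl⟩
      exact ⟨hG g.2, (congrArg Subtype.val (hg x (Subgroup.mem_zpowers x))).symm⟩) F
    (by rintro _ ⟨g, hg, rfl⟩; exact hF g g.2)
  rw [Subgroup.card_map_of_injective G.subtype_injective,
    card_sdiff_of_subset (fun a ha => mem_Fx.2 (hF x x.2 a ha)), hc'] at hj3
  rw [hc'] at hj1
  obtain ⟨h2, h3, h4⟩ := norm_facts hp (Subgroup.zpowers x) (by rw [Nat.card_zpowers, hx])
    (hn ▸ h1)
  rw [hn] at h2 h3
  have hc24 : c < 24 := by
    have := card_le_univ (Fx x)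
    have h3 : (Fx x).card < 9 := by
      by_contra h4; exact hx1 (eq_one_of_nine (hG x.2) (by omega))
    omega
  refine hB _ (Nat.mem_divisors.2 ⟨h4.trans (Nat.mul_dvd_mul_right (hj3.trans
    (Nat.mul_dvd_mul_right (hk j (Nat.mem_divisors.2 ⟨hj1, by omega⟩) hj2) _)) _), ?_⟩) h2 h3
  have := hp.one_lt
  exact mul_ne_zero (mul_ne_zero hk0 (Nat.factorial_ne_zero _)) (by omega)

/-- a self-centralising elementary abelian normal 2-subgroup of the centraliser of `t` -/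
def Phi (G : Subgroup P24) (t : P24) : Prop :=
  ∃ Q : Subgroup P24, Q ≤ G ∧ (∀ q ∈ Q, q * q = 1) ∧ (∀ q ∈ Q, q * t = t * q) ∧
    (∀ g ∈ G, g * t = t * g → ∀ q ∈ Q, g * q * g⁻¹ ∈ Q) ∧
    ∀ c ∈ G, (orderOf c).Prime → (∀ q ∈ Q, c * q = q * c) → orderOf c = 2

theorem Phi.conj {G : Subgroup P24} {t k : P24} (hk : k ∈ G) (h : Phi G t) :
    Phi G (k * t * k⁻¹) := by
  obtain ⟨Q, h1, h2, h3, h4, h5⟩ := h
  have hm : ∀ {g}, g ∈ G → k⁻¹ * g * k ∈ G := fun hg => G.mul_mem (G.mul_mem (G.inv_mem hk) hg) hk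
  have hQ : ∀ q, q ∈ Q.comap (MulAut.conj k⁻¹).toMonoidHom ↔ k⁻¹ * q * k ∈ Q := fun q => by
    simp
  refine ⟨Q.comap (MulAut.conj k⁻¹).toMonoidHom, fun q hq => ?_, fun q hq => ?_, fun q hq => ?_,
    fun g hg e q hq => ?_, fun c hc hp e => ?_⟩
  · have := G.mul_mem (G.mul_mem hk (h1 ((hQ q).1 hq))) (G.inv_mem hk)
    simpa [mul_assoc] using this
  · have := h2 _ ((hQ q).1 hq)
    calc q * q = k * (k⁻¹ * q * k * (k⁻¹ * q * k)) * k⁻¹ := by group
      _ = 1 := by rw [this]; group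
  · have := h3 _ ((hQ q).1 hq)
    calc q * (k * t * k⁻¹) = k * (k⁻¹ * q * k * t) * k⁻¹ := by group
      _ = _ := by rw [this]; group
  · rw [hQ] at *
    have := h4 _ (hm hg) (by
      calc k⁻¹ * g * k * t = k⁻¹ * (g * (k * t * k⁻¹)) * k := by group
        _ = _ := by rw [e]; group) _ hq
    convert this using 1; group
  · have ho : orderOf (k⁻¹ * c * k) = orderOf c := by
      have := (MulAut.conj k⁻¹).orderOf_eq c
      simpa using this
    rw [← ho] at hp ⊢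
    refine h5 _ (hm hc) hp fun q hq => ?_
    have := e (k * q * k⁻¹) ((hQ _).2 (by simpa [mul_assoc] using hq))
    calc k⁻¹ * c * k * q = k⁻¹ * (c * (k * q * k⁻¹)) * k := by group
      _ = _ := by rw [this]; group

theorem Phi.out {G : Subgroup P24} {y : G} (h : Phi G y) :
    ∃ Q : Subgroup (Subgroup.centralizer ({y} : Set G)), Q.Normal ∧ IsPGroup 2 Q ∧
      IsPGroup 2 (Subgroup.centralizer (Q : Set (Subgroup.centralizer ({y} : Set G)))) := by
  obtain ⟨Q, h1, h2, h3, h4, h5⟩ := h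
  let f := G.subtype.comp (Subgroup.centralizer ({y} : Set G)).subtype
  refine ⟨Q.comap f, ⟨fun n hn g => ?_⟩, fun q => ⟨1, ?_⟩, ?_⟩
  · exact h4 _ g.1.2 (congrArg Subtype.val (Subgroup.mem_centralizer_singleton_iff.1 g.2)) _ hn
  · exact Subtype.ext (Subtype.ext (Subtype.ext (by
      have := h2 _ q.2
      simpa [pow_two, f] using this)))
  · refine IsPGroup.iff_card.2 ⟨_, Nat.eq_prime_pow_of_unique_prime_dvd Nat.card_pos.ne'
      fun {d} hd hdv => ?_⟩
    haveI := Fact.mk hd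
    obtain ⟨c, hc⟩ := exists_prime_orderOf_dvd_card' d hdv
    rw [← Subgroup.orderOf_coe, ← Subgroup.orderOf_coe, ← Subgroup.orderOf_coe] at hc
    rw [← hc] at hd ⊢
    refine h5 _ c.1.1.2 hd fun q hq => ?_
    have := c.2 ⟨⟨q, h1 hq⟩, Subgroup.mem_centralizer_singleton_iff.2
      (Subtype.ext (h3 q hq))⟩ hq
    exact (congrArg (fun z => (z.1.1 : P24)) this).symm

theorem odd_fix {c : P24} (hc : c ∈ M24) (hp : (orderOf c).Prime) (h2 : orderOf c ≠ 2)
    {o : Finset GolayPt} (ho : o.card = 8) (h : ∀ a ∈ o, c a ∈ o) :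
    (Fx c ∩ o).Nonempty ∧ (Fx c ∩ oᶜ).Nonempty ∧ (Fx c).card ≤ 6 := by
  have h3 : ∀ n, ¬ orderOf c ∣ 2 ^ n := fun n hn =>
    h2 ((Nat.prime_dvd_prime_iff_eq hp Nat.prime_two).1 (hp.dvd_of_dvd_pow hn))
  refine ⟨?_, ?_, ?_⟩
  · rw [← card_pos, Nat.pos_iff_ne_zero]
    intro e
    have := fx_mod hp (pow_orderOf_eq_one c) h
    rw [e, ho] at this
    exact h3 3 ((Nat.modEq_zero_iff_dvd).1 this.symm)
  · rw [← card_pos, Nat.pos_iff_ne_zero]
    intro e
    have := fx_mod hp (pow_orderOf_eq_one c) (maps_compl h)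
    rw [e, card_compl, card_golayPt, ho] at this
    exact h3 4 ((Nat.modEq_zero_iff_dvd).1 this.symm)
  · by_contra h4
    rcases fix_cases hc (by omega) with h5 | h5 | h5
    · rw [h5, orderOf_one] at hp; exact Nat.not_prime_one hp
    · exact h3 1 (orderOf_dvd_of_pow_eq_one (by rw [pow_one, pow_two]; exact h5.2))
    · omega

theorem phi_2A {G : Subgroup P24} (hG : G ≤ M24) {t : P24} (ht : t ∈ M24) (ho : Fx t ∈ octads)
    (hE : fixOct (Fx t) ≤ G) : Phi G t := by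
  have h8 := ((mem_octads _).1 ho).2
  have hsq : ∀ q ∈ fixOct (Fx t), q * q = 1 := fun q hq => by
    have : (Fx t).card ≤ (Fx q).card := card_le_card fun a ha => mem_Fx.2 ((mem_fixOct.1 hq).2 a ha)
    rcases fix_cases (mem_fixOct.1 hq).1 (by omega) with h5 | h5 | h5
    · rw [h5, mul_one]
    · exact h5.2
    · omega
  have htE : t ∈ fixOct (Fx t) := mem_fixOct.2 ⟨ht, fun a ha => mem_Fx.1 ha⟩
  refine ⟨fixOct (Fx t), hE, hsq, fun q hq => ?_, fun g hg e q hq => ?_, fun c hc hp e => ?_⟩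
  · have h1 := hsq _ (mul_mem hq htE)
    calc q * t = (q * q) * (q * t)⁻¹ * (q * t * (q * t)) * (t * t)⁻¹ * (t * t) * (q * q)⁻¹ := by
          rw [hsq q hq]; group
      _ = t * q := by
          rw [h1, mul_inv_rev, inv_eq_of_mul_eq_one_left (hsq q hq),
            inv_eq_of_mul_eq_one_left (hsq t htE), hsq q hq, hsq t htE]; group
  · refine mem_fixOct.2 ⟨M24.mul_mem (M24.mul_mem (hG hg) (mem_fixOct.1 hq).1)
      (M24.inv_mem (hG hg)), fun a ha => ?_⟩
    have : g⁻¹ a ∈ Fx t := maps_Fx (show Commute g t from e).inv_left a ha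
    rw [Equiv.Perm.mul_apply, Equiv.Perm.mul_apply, (mem_fixOct.1 hq).2 _ this]
    simp
  · by_contra h2
    obtain ⟨-, ⟨b, hb⟩, h6⟩ := odd_fix (hG hc) hp h2 h8 (maps_Fx (e t htE))
    have : (Fx t)ᶜ ⊆ Fx c := fun b' hb' => by
      obtain ⟨g, hg, rfl⟩ := fixOct_trans ho (mem_compl.1 (mem_inter.1 hb).2) (mem_compl.1 hb')
      exact maps_Fx (e g hg).symm b (mem_inter.1 hb).1
    have := card_le_card this
    rw [card_compl, card_golayPt] at this
    omega

theorem four_le {u v : P24} (hu : Fx u = ∅) (hv : Fx v = ∅) (huv : Fx (u * v) = ∅)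
    (hu2 : u * u = 1) {S : Finset GolayPt} (h1 : ∀ a ∈ S, u a ∈ S) (h2 : ∀ a ∈ S, v a ∈ S)
    (hS : S.Nonempty) : 4 ≤ S.card := by
  obtain ⟨a, ha⟩ := hS
  rw [Fx_eq_empty] at hu hv huv
  have e1 : u a ≠ a := hu a
  have e2 : v a ≠ a := hv a
  have e3 : u (v a) ≠ a := huv a
  have e4 : u a ≠ v a := fun e => e3 (by rw [← e, ← Equiv.Perm.mul_apply, hu2]; rfl)
  have e5 : u (v a) ≠ u a := fun e => e2 (u.injective e)
  have e6 : u (v a) ≠ v a := hu _
  have : ({a, u a, v a, u (v a)} : Finset GolayPt) ⊆ S := by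
    intro b hb
    simp only [mem_insert, mem_singleton] at hb
    rcases hb with rfl | rfl | rfl | rfl
    exacts [ha, h1 _ ha, h2 _ ha, h1 _ (h2 _ ha)]
  refine le_trans ?_ (card_le_card this)
  rw [card_insert_of_notMem (by simp [e1.symm, e2.symm, e3.symm]),
    card_insert_of_notMem (by simp [e4, e5.symm]), card_pair e6.symm]

theorem hex_of {c : ℕ} (h : m24Err c = 0)
    (h2 : ∀ i < 6, act (mat c) (get 24 cSex i) = get 24 cSex i) (h3 : mul c c = one) :
    tp c ∈ Cl gensHex := by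
  refine mem_Hex.2 ⟨mem_sexKer.2 ⟨tp_mem_of_m24Err h, fun t ht => ?_⟩, ?_⟩
  · obtain ⟨i, hi, rfl⟩ := mem_fd.1 ht
    rw [← mk_inj, ← act_pc, mk_um_get, pc_tp_of_m24Err h]
    exact h2 i hi
  · rw [← pc_inj, ← mul_pc, pc_tp_of_m24Err h, pc_one, h3]

theorem phi_2B : Phi M24 (tp c2B) := by
  have hsq : ∀ q ∈ Cl gensHex, q * q = 1 := fun q hq => (mem_Hex.1 hq).2
  have hcomm : ∀ q ∈ Cl gensHex, ∀ r ∈ Cl gensHex, q * r = r * q := fun q hq r hr => by
    rw [← inv_eq_of_mul_eq_one_left (hsq _ (mul_mem hq hr)), mul_inv_rev,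
      inv_eq_of_mul_eq_one_left (hsq q hq), inv_eq_of_mul_eq_one_left (hsq r hr)]
  have ht : tp c2B ∈ Cl gensHex := hex_of (by decide +kernel) (by decide +kernel) (by decide +kernel)
  have hv : tp 721269757000026622558066059189945411 ∈ Cl gensHex :=
    hex_of (by decide +kernel) (by decide +kernel) (by decide +kernel)
  have he : tp 963721886883755259286232606933354528 ∈ Cl gensHex :=
    hex_of (by decide +kernel) (by decide +kernel) (by decide +kernel)
  have pv : pc (tp 721269757000026622558066059189945411) = _ := pc_tp (by decide +kernel)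
  have pe : pc (tp 963721886883755259286232606933354528) = _ := pc_tp (by decide +kernel)
  have fv : Fx (tp 721269757000026622558066059189945411) = ∅ := by
    rw [← card_eq_zero, card_Fx_eq pv]; decide +kernel
  have ftv : Fx (tp c2B * tp 721269757000026622558066059189945411) = ∅ := by
    rw [← card_eq_zero, card_Fx_eq (by rw [← mul_pc, pv, pc_2B])]; decide +kernel
  have fe : (Fx (tp 963721886883755259286232606933354528)).card = 8 := by
    rw [card_Fx_eq pe]; decide +kernel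
  generalize tp 721269757000026622558066059189945411 = v at *
  generalize tp 963721886883755259286232606933354528 = e at *
  refine ⟨Cl gensHex, fun q hq => (mem_sexKer.1 (mem_Hex.1 hq).1).1, hsq,
    fun q hq => hcomm q hq _ ht, fun g hg h q hq => ?_, fun c hc hp h => ?_⟩
  · have h1 : g • sex0 = sex0 := (mem_St.1 (cent2B_le (mem_St_cj.2 ⟨hg, h⟩))).2
    obtain ⟨h2, h3⟩ := mem_Hex.1 hq
    obtain ⟨h4, h5⟩ := mem_sexKer.1 h2
    refine mem_Hex.2 ⟨mem_sexKer.2 ⟨M24.mul_mem (M24.mul_mem hg h4) (M24.inv_mem hg),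
      fun s hs => ?_⟩, ?_⟩
    · have : g⁻¹ • s ∈ sex0 := by
        rw [inv_smul_mem_iff, h1]; exact hs
      rw [mul_smul, mul_smul, h5 _ this, smul_inv_smul]
    · calc g * q * g⁻¹ * (g * q * g⁻¹) = g * (q * q) * g⁻¹ := by group
        _ = 1 := by rw [h3]; group
  · by_contra h2
    obtain ⟨ha, hb, h6⟩ := odd_fix hc hp h2 fe (maps_Fx (h e he))
    have m1 : ∀ q ∈ Cl gensHex, ∀ a ∈ Fx c ∩ Fx e, q a ∈ Fx c ∩ Fx e := fun q hq a ha =>
      mem_inter.2 ⟨maps_Fx (h q hq).symm a (mem_inter.1 ha).1,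
        maps_Fx (hcomm q hq e he) a (mem_inter.1 ha).2⟩
    have m2 : ∀ q ∈ Cl gensHex, ∀ a ∈ Fx c ∩ (Fx e)ᶜ, q a ∈ Fx c ∩ (Fx e)ᶜ := fun q hq a ha =>
      mem_inter.2 ⟨maps_Fx (h q hq).symm a (mem_inter.1 ha).1,
        maps_compl (maps_Fx (hcomm q hq e he)) a (mem_inter.1 ha).2⟩
    have f1 := four_le Fx_2B fv ftv (hsq _ ht) (m1 _ ht) (m1 _ hv) ha
    have f2 := four_le Fx_2B fv ftv (hsq _ ht) (m2 _ ht) (m2 _ hv) hb
    rw [← sdiff_eq_inter_compl] at f2
    have := card_sdiff_add_card_inter (Fx c) (Fx e)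
    omega

theorem phi_M24 {t : P24} (ht : t ∈ M24) (h2 : orderOf t = 2) : Phi M24 t := by
  rcases (Fx t).eq_empty_or_nonempty with h | h
  · obtain ⟨k, hk, rfl⟩ := conj_2B ht h2 h
    exact phi_2B.conj hk
  · exact phi_2A le_rfl ht (Fx_involution ht h2 h) inf_le_left

theorem phi_M22 {t : P24} (ht : t ∈ Spor.M22) (h2 : orderOf t = 2) : Phi Spor.M22 t := by
  obtain ⟨⟨h3, h4⟩, h5⟩ := mem_M22.1 ht
  exact phi_2A (fun g hg => (mem_M22.1 hg).1.1) h3 (Fx_involution h3 h2 ⟨_, mem_Fx.2 h4⟩)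
    fun g hg => mem_M22.2 ⟨⟨(mem_fixOct.1 hg).1, (mem_fixOct.1 hg).2 _ (mem_Fx.2 h4)⟩,
      (mem_fixOct.1 hg).2 _ (mem_Fx.2 h5)⟩

theorem bound2 {G : Type*} [Group G] [Fintype G] (P Q : Subgroup G) {p : ℕ} (hp : p.Prime)
    (hp2 : Odd p) (hP : Nat.card P = p) {c N : ℕ} (hQ : Nat.card Q = c) (hQ2 : ∀ y ∈ Q, y * y = 1)
    (hN : Nat.card (Subgroup.normalizer (P : Set G)) ≤ N)
    (hPQ : ∀ x ∈ P, ∀ y ∈ Q, x * y = y * x) {χ : G → ℂ} (hχ : IsGeneralizedCharacter G χ)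
    (hv : ∀ g, 2 ∣ orderOf g → χ g = 0) {d : ℕ} (hd : χ 1 = d) (q : ℤ) :
    (Nat.card G : ℝ) * (p * (c * (2 * q + 1) * d - p * (c ^ 2 * q * (q + 1))) - d ^ 2) ≤
      N * ∑ g with orderOf g = p, ‖χ g‖ ^ 2 := by
  refine DefZ.bound P Q hp hP hQ hN hPQ hχ (fun x hx y hy h1 => hv _ ?_) hd q
  have h2 : orderOf y = 2 := orderOf_eq_prime (by rw [pow_two]; exact hQ2 y hy) h1
  have h3 : x ^ p = 1 := by
    have := pow_card_eq_one' (x := (⟨x, hx⟩ : P))
    rw [hP] at this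
    exact congrArg Subtype.val this
  have h4 : (x * y) ^ p = y := by
    obtain ⟨k, rfl⟩ := hp2
    rw [(show Commute x y from hPQ x hx y hy).mul_pow, h3, one_mul, pow_succ, pow_mul, pow_two,
      hQ2 y hy, one_pow, one_mul]
  have := orderOf_pow_dvd (x := x * y) p
  rwa [h4, h2] at this

theorem sum_le {G : Type*} [Group G] [Fintype G] (t : Finset ℕ) {f : G → ℝ} (h : ∀ g, 0 ≤ f g) :
    ∑ n ∈ t, ∑ g with orderOf g = n, f g ≤ ∑ g, f g := by
  rw [sum_fiberwise_eq_sum_filter]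
  exact sum_le_sum_of_subset_of_nonneg (filter_subset _ _) fun g _ _ => h g

theorem sum_one {G : Type*} [Group G] [Fintype G] (f : G → ℝ) :
    ∑ g with orderOf g = 1, f g = f 1 := by
  rw [sum_eq_single 1] <;> simp +contextual

theorem fac {p n k : ℕ} (hp : p.Prime) (h1 : p ^ k ∣ n) (h2 : ¬ p ^ (k + 1) ∣ n) :
    n.factorization p = k := by
  have hn : n ≠ 0 := fun e => h2 (e ▸ dvd_zero _)
  rw [hp.pow_dvd_iff_le_factorization hn] at h1 h2
  omega

end MB

end Cfsg.Agent.FGS
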