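import Mathlib
import Cfsg.Agent.Push.MinPar
import Cfsg.Agent.Classical.Borel2
import Cfsg.Agent.Classical.Congr

/-! The natural `SL₂(F)`-module inside a group, in coordinates adapted to a Sylow subgroup. -/

set_option autoImplicit false

namespace Cfsg.Agent.FGS

open Subgroup Cfsg.Agent.Push Cfsg.Agent.Classical.SL2Basic Cfsg.Agent.Classical.Borel2 Matrix
open scoped MatrixGroups Pointwise

variable {G : Type*} [Group G] {F : Type*} [Field F] {V L T : Subgroup G}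

/-- coordinates in which `T` is the upper unitriangular group -/
structure NatU (V L T : Subgroup G) (σ : L →* SL(2, F)) (ψ : G → Fin 2 → F) : Prop where
  d : NatData F L V ⊥ σ ψ
  bij : Function.Bijective σ
  le : T ≤ L
  up : ∀ a : L, (a : G) ∈ T ↔ ∃ c, upper c = σ a

theorem exists_natU [Finite G] [Finite F] {p : ℕ} [Fact p.Prime] [CharP F p] (hnat : IsNaturalSL2Module F V L)
    (hf : L ⊓ centralizer (V : Set G) = ⊥) (S : Sylow p L) : ∃ (σ : L →* SL(2, F)) (ψ : G → Fin 2 → F),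
      NatU V L ((S : Subgroup L).map L.subtype) σ ψ := by
  obtain ⟨σ, ψ, d, s⟩ := isNatural_iff.mp hnat
  have hi : Function.Injective σ := (injective_iff_map_eq_one σ).mpr fun a ha =>
    Subtype.ext (hf.le ⟨a.2, (d.eq_one_iff_bot a).mp ha⟩)
  obtain ⟨g, hg⟩ := MulAction.exists_smul_eq SL(2, F) (S.mapSurjective s) (sylSL F p)
  have hm : Function.Bijective (g : Matrix (Fin 2) (Fin 2) F).mulVec := (Matrix.SpecialLinearGroup.toLin' g).bijective
  refine ⟨(MulAut.conj g).toMonoidHom.comp σ, (g : Matrix (Fin 2) (Fin 2) F).mulVec ∘ ψ, ⟨d.norm, d.le, fun u hu v hv => ?_,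
    fun x => ?_, fun u hu => ?_, fun e u hu => ?_⟩, (MulAut.conj g).bijective.comp ⟨hi, s⟩, map_subtype_le _, fun a => ?_⟩
  · simp [d.mul u hu v hv, mulVec_add]
  · obtain ⟨y, rfl⟩ := hm.2 x
    obtain ⟨u, hu, rfl⟩ := d.surj y
    exact ⟨u, hu, rfl⟩
  · rw [← d.ker u hu, ← hm.1.eq_iff (a := ψ u), mulVec_zero]; rfl
  · simp only [Function.comp, d.conj e u hu, mulVec_mulVec, ← Matrix.SpecialLinearGroup.coe_mul]
    simp
  · rw [← mem_USL, ← coe_sylSL (F := F) p, ← hg, Sylow.coe_subgroup_smul, Sylow.coe_mapSurjective]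
    change _ ↔ MulAut.conj g • σ a ∈ _
    rw [smul_mem_pointwise_smul_iff, mem_map_iff_mem hi, ← mem_map_iff_mem L.subtype_injective]; rfl

namespace NatU

variable {σ : L →* SL(2, F)} {ψ : G → Fin 2 → F} (h : NatU V L T σ ψ)
include h

theorem inj {u v : G} (hu : u ∈ V) (hv : v ∈ V) (e : ψ u = ψ v) : u = v :=
  mul_inv_eq_one.mp ((h.d.eq_iff hu hv).mp e)

theorem conj_mem (a : L) {u : G} (hu : u ∈ V) : a * u * (a : G)⁻¹ ∈ V := (h.d.norm a.2 u).mp hu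

theorem cent_iff (a : L) {u : G} (hu : u ∈ V) :
    u ∈ centralizer {(a : G)} ↔ (σ a : Matrix (Fin 2) (Fin 2) F).mulVec (ψ u) = ψ u := by
  rw [← h.d.conj a u hu, mem_centralizer_singleton_iff, eq_comm, ← mul_inv_eq_iff_eq_mul]
  exact ⟨fun e => by rw [e], h.inj (h.conj_mem a hu) hu⟩

theorem comm_up {a : L} {c : F} (e : upper c = σ a) {u : G} (hu : u ∈ V) :
    ψ (a * u * (a : G)⁻¹ * u⁻¹) = ![c * ψ u 1, 0] := by rw [h.d.comm a hu, ← e, upper_mulVec]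

theorem cent_one {s : G} (hs : s ∈ T) (h1 : s ≠ 1) {u : G} (hu : u ∈ V) : u ∈ centralizer {s} ↔ ψ u 1 = 0 := by
  obtain ⟨c, hc⟩ := (h.up ⟨s, h.le hs⟩).mp hs
  have hc0 : c ≠ 0 := fun e => h1 (congrArg Subtype.val (h.bij.1 (by rw [← hc, e, upper_zero, map_one]) : (⟨s, h.le hs⟩ : L) = 1))
  rw [h.cent_iff ⟨s, h.le hs⟩ hu, ← sub_eq_zero, ← hc, upper_mulVec]
  simp [hc0]

theorem exists_up (c : F) : ∃ a : L, (a : G) ∈ T ∧ upper c = σ a :=
  (h.bij.2 (upper c)).imp fun a e => ⟨(h.up a).mpr ⟨c, e.symm⟩, e.symm⟩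

theorem cent_T {u : G} (hu : u ∈ V) : u ∈ centralizer (T : Set G) ↔ ψ u 1 = 0 := by
  refine ⟨fun e => ?_, fun e s hs => ?_⟩
  · obtain ⟨a, ha, ea⟩ := h.exists_up 1
    have := h.comm_up ea hu
    rw [e a ha, mul_inv_cancel_right, mul_inv_cancel, h.d.one] at this
    simpa using (congrFun this 0).symm
  · by_cases h1 : s = 1
    · simp [h1]
    · exact (mem_centralizer_singleton_iff.mp ((h.cent_one hs h1 hu).mpr e)).symm

theorem comm_mem {t u : G} (ht : t ∈ T) (hu : u ∈ V) : t * u * t⁻¹ * u⁻¹ ∈ V ⊓ centralizer (T : Set G) := by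
  obtain ⟨c, hc⟩ := (h.up ⟨t, h.le ht⟩).mp ht
  have h1 := mul_mem (h.conj_mem ⟨t, h.le ht⟩ hu) (inv_mem hu)
  exact ⟨h1, (h.cent_T h1).mpr (by rw [h.comm_up hc hu]; rfl)⟩

theorem norm_T [Finite G] (a : L) (e : σ a 1 0 = 0) : (a : G) ∈ normalizer (T : Set G) :=
  mem_normalizer_fintype fun t ht => by
    obtain ⟨c, hc⟩ := (h.up ⟨t, h.le ht⟩).mp ht
    exact (h.up (a * ⟨t, h.le ht⟩ * a⁻¹)).mpr ⟨_, by rw [map_mul, map_mul, map_inv, ← hc, conj_upper e]⟩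

theorem exists_diag [Finite G] {c : F} (hc : c ≠ 0) : ∃ a ∈ L ⊓ normalizer (T : Set G), ∀ u ∈ V,
    ψ (a * u * a⁻¹) = ![c * ψ u 0, c⁻¹ * ψ u 1] := by
  obtain ⟨a, e⟩ := h.bij.2 (mkSL c 0 0 c⁻¹ (by simp [hc]))
  refine ⟨a, ⟨a.2, h.norm_T a (by rw [e]; rfl)⟩, fun u hu => ?_⟩
  rw [h.d.conj a u hu, e]
  ext i; fin_cases i <;> simp [Matrix.mulVec, dotProduct, Fin.sum_univ_two]

theorem comm {u v : G} (hu : u ∈ V) (hv : v ∈ V) : u * v = v * u :=
  h.inj (mul_mem hu hv) (mul_mem hv hu) (by rw [h.d.mul u hu v hv, h.d.mul v hv u hu, add_comm])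

end NatU

end Cfsg.Agent.FGS
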