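import Mathlib

/-! Automorphisms of odd order of doubly transitive groups. -/

set_option autoImplicit false

namespace Cfsg.Agent.FGS.TwoTr

open MulAction Matrix

variable {G Ω : Type*} [Group G] [MulAction G Ω] [Fintype Ω] [DecidableEq Ω]

/-- Matrices invariant under the twisted diagonal action. -/
def Inv (β : MulAut G) (M : Matrix Ω Ω ℤ) : Prop := ∀ (g : G) (a b : Ω), M (g • a) (β g • b) = M a b

/-- The all-one matrix. -/
def J (Ω : Type*) : Matrix Ω Ω ℤ := of fun _ _ => 1

omit [Fintype Ω] [DecidableEq Ω] in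
theorem J_apply (a b : Ω) : J Ω a b = 1 := rfl

omit [DecidableEq Ω] in
theorem Inv.mul {β γ : MulAut G} {M M' : Matrix Ω Ω ℤ} (h : Inv β M) (h' : Inv γ M') :
    Inv (γ * β) (M * M') := fun g a b => by
  simp only [Matrix.mul_apply]
  exact (Fintype.sum_equiv (toPerm (β g)) _ _ fun c => by
    rw [toPerm_apply, h, MulAut.mul_apply, h']).symm

omit [Fintype Ω] [DecidableEq Ω] in
theorem Inv.tr {β : MulAut G} {M : Matrix Ω Ω ℤ} (h : Inv β M) : Inv β⁻¹ Mᵀ := fun g a b => by
  rw [transpose_apply, transpose_apply, ← h (β⁻¹ g) b a, MulAut.apply_inv_self]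

omit [DecidableEq Ω] in
theorem J_mul_J : J Ω * J Ω = (Fintype.card Ω : ℤ) • J Ω := by
  ext a b; simp only [J_apply, Matrix.mul_apply, Matrix.smul_apply]; simp

omit [Fintype Ω] [DecidableEq Ω] in
theorem J_tr : (J Ω)ᵀ = J Ω := rfl

omit [Fintype Ω] in
theorem cmp {a b : Ω} (hab : a ≠ b) {u w u' w' : ℤ}
    (h : u • (1 : Matrix Ω Ω ℤ) + w • J Ω = u' • (1 : Matrix Ω Ω ℤ) + w' • J Ω) : u = u' ∧ w = w' := by
  have h1 := congrFun (congrFun h a) a
  have h2 := congrFun (congrFun h a) b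
  simp only [J_apply, Matrix.add_apply, Matrix.smul_apply, one_apply_eq, one_apply_ne hab] at h1 h2
  simp at h1 h2
  omega

variable (h2 : ∀ a b c d : Ω, a ≠ b → c ≠ d → ∃ g : G, g • a = c ∧ g • b = d) {o o' : Ω} (ho : o ≠ o')
include h2 ho

omit [DecidableEq Ω] in
theorem trans (a c : Ω) : ∃ g : G, g • a = c := by
  haveI : Nontrivial Ω := ⟨o, o', ho⟩
  obtain ⟨b, hb⟩ := exists_ne a
  obtain ⟨d, hd⟩ := exists_ne c
  obtain ⟨g, h, -⟩ := h2 a b c d hb.symm hd.symm
  exact ⟨g, h⟩

theorem Inv.one {M : Matrix Ω Ω ℤ} (h : Inv (1 : MulAut G) M) : ∃ u w : ℤ, M = u • 1 + w • J Ω := by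
  refine ⟨M o o - M o o', M o o', ?_⟩
  ext a b
  by_cases hab : a = b
  · obtain ⟨g, rfl⟩ := trans h2 ho o a
    subst hab
    simp only [J_apply, Matrix.add_apply, Matrix.smul_apply, one_apply_eq]
    simpa using h g o o
  · obtain ⟨g, rfl, rfl⟩ := h2 o o' a b ho hab
    simp only [J_apply, Matrix.add_apply, Matrix.smul_apply, one_apply_ne hab]
    simpa using h g o o'

omit [DecidableEq Ω] in
theorem Inv.row {β : MulAut G} {M : Matrix Ω Ω ℤ} (h : Inv β M) : M * J Ω = (∑ b, M o b) • J Ω := by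
  ext a b
  obtain ⟨g, rfl⟩ := trans h2 ho o a
  simp only [J_apply, Matrix.mul_apply, mul_one, Matrix.smul_apply, smul_eq_mul]
  exact (Fintype.sum_equiv (toPerm (β g)) _ _ fun c => by rw [toPerm_apply, h]).symm

omit [DecidableEq Ω] in
theorem Inv.col {β : MulAut G} {M : Matrix Ω Ω ℤ} (h : Inv β M) : J Ω * M = (∑ b, M o b) • J Ω := by
  have h1 := congrArg transpose (h.tr.row h2 ho)
  rw [transpose_mul, transpose_transpose, transpose_smul, J_tr] at h1
  have h3 : J Ω * M * J Ω = J Ω * (M * J Ω) := Matrix.mul_assoc _ _ _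
  rw [h1, h.row h2 ho, Matrix.smul_mul, Matrix.mul_smul, J_mul_J] at h3
  have h4 := congrFun (congrFun h3 o) o
  haveI : Nonempty Ω := ⟨o⟩
  have : (Fintype.card Ω : ℤ) ≠ 0 := by exact_mod_cast Fintype.card_ne_zero
  simp only [J_apply, Matrix.smul_apply, smul_eq_mul, mul_one] at h4
  rw [h1, mul_right_cancel₀ this h4]

theorem Inv.des {β : MulAut G} {M : Matrix Ω Ω ℤ} (h : Inv β M) (h01 : ∀ a b, M a b = 0 ∨ M a b = 1) :
    ∃ N l : ℤ, M * Mᵀ = N • 1 + l • J Ω ∧ N + l = ∑ b, M o b ∧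
      (∑ b, M o b) ^ 2 = N + l * Fintype.card Ω ∧ 0 ≤ l := by
  obtain ⟨N, l, e⟩ := Inv.one h2 ho (M := M * Mᵀ) (inv_mul_cancel β ▸ h.mul h.tr)
  refine ⟨N, l, e, ?_, ?_, ?_⟩
  · have := congrFun (congrFun e o) o
    simp only [J_apply, Matrix.mul_apply, transpose_apply, Matrix.add_apply, Matrix.smul_apply, one_apply_eq, smul_eq_mul,
      mul_one] at this
    rw [← this]
    exact Finset.sum_congr rfl fun b _ => by rcases h01 o b with h | h <;> simp [h]
  · have h1 := congrArg transpose (h.col h2 ho)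
    rw [transpose_mul, transpose_smul, J_tr] at h1
    have h3 := congrArg (· * J Ω) e
    simp only [Matrix.mul_assoc, h1, Matrix.mul_smul, h.row h2 ho, Matrix.add_mul, Matrix.smul_mul,
      Matrix.one_mul, J_mul_J] at h3
    have := congrFun (congrFun h3 o) o
    simp only [J_apply, Matrix.add_apply, Matrix.smul_apply, smul_eq_mul, mul_one] at this
    rw [sq, this]
  · have := congrFun (congrFun e o) o'
    simp only [J_apply, Matrix.mul_apply, transpose_apply, Matrix.add_apply, Matrix.smul_apply, one_apply_ne ho, smul_eq_mul,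
      mul_one, mul_zero, zero_add] at this
    rw [← this]
    exact Finset.sum_nonneg fun b _ => by
      rcases h01 o b with h | h <;> rcases h01 o' b with h' | h' <;> simp [h, h']

omit [DecidableEq Ω] in
theorem Inv.exists_fun {β : MulAut G} {M : Matrix Ω Ω ℤ} (h : Inv β M)
    (h01 : ∀ a b, M a b = 0 ∨ M a b = 1) (h1 : ∑ b, M o b = 1) :
    ∃ τ : Equiv.Perm Ω, ∀ (g : G) (a : Ω), τ (g • a) = β g • τ a := by
  classical
  have key : ∀ a, ∃! b, M a b = 1 := fun a => by
    have e := congrFun (congrFun (h.row h2 ho) a) a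
    simp only [J_apply, Matrix.mul_apply, mul_one, Matrix.smul_apply, smul_eq_mul, h1] at e
    rw [Finset.sum_congr rfl (g := fun b => if M a b = 1 then 1 else 0) fun b _ => by
      rcases h01 a b with h | h <;> simp [h], Finset.sum_boole, Nat.cast_eq_one,
      Finset.card_eq_one] at e
    obtain ⟨b, hb⟩ := e
    exact ⟨b, (Finset.mem_filter.mp (hb.ge (Finset.mem_singleton_self b))).2, fun c hc =>
      Finset.mem_singleton.mp (hb.le (Finset.mem_filter.mpr ⟨Finset.mem_univ c, hc⟩))⟩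
  choose σ hσ hσ' using key
  have e : ∀ (g : G) (a : Ω), σ (g • a) = β g • σ a := fun g a =>
    (hσ' _ _ ((h g a _).trans (hσ a))).symm
  have hs : Function.Surjective σ := fun b => by
    obtain ⟨g, hg⟩ := trans h2 ho (σ o) b
    exact ⟨β⁻¹ g • o, by rw [e, MulAut.apply_inv_self, hg]⟩
  exact ⟨Equiv.ofBijective σ (Finite.surjective_iff_bijective.mp hs), e⟩

open Classical in
/-- The indicator matrix of an orbit of the twisted action. -/
noncomputable def orb (β : MulAut G) (a b : Ω) : Matrix Ω Ω ℤ :=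
  of fun c d => if ∃ g : G, g • a = c ∧ β g • b = d then 1 else 0

omit h2 ho [Fintype Ω] [DecidableEq Ω] in
theorem orb_inv (β : MulAut G) (a b : Ω) : Inv β (orb β a b) := fun x c d => by
  classical
  simp only [orb, of_apply]
  congr 1
  refine propext ⟨?_, ?_⟩
  · rintro ⟨g, h1, h2⟩
    exact ⟨x⁻¹ * g, by rw [mul_smul, h1, inv_smul_smul],
      by rw [map_mul, mul_smul, h2, map_inv, inv_smul_smul]⟩
  · rintro ⟨g, rfl, rfl⟩
    exact ⟨x * g, mul_smul _ _ _, by rw [map_mul, mul_smul]⟩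

omit h2 ho [Fintype Ω] [DecidableEq Ω] in
theorem orb_01 (β : MulAut G) (a b c d : Ω) : orb β a b c d = 0 ∨ orb β a b c d = 1 := by
  simp only [orb, of_apply]; split_ifs <;> simp

omit h2 ho [DecidableEq Ω] in
theorem sum_le {M : Matrix Ω Ω ℤ} (h01 : ∀ a b, M a b = 0 ∨ M a b = 1) (a : Ω) :
    ∑ b, M a b ≤ Fintype.card Ω := by
  simpa using Finset.sum_le_card_nsmul Finset.univ (M a) 1 fun b _ => by
    rcases h01 a b with h | h <;> simp [h]

theorem exists_sq {β : MulAut G} {A : Matrix Ω Ω ℤ} (hA : Inv β A)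
    (h01 : ∀ a b, A a b = 0 ∨ A a b = 1) (hk : IsCoprime (∑ b, A o b) (Fintype.card Ω)) :
    ∃ τ : Equiv.Perm Ω, ∀ (g : G) (a : Ω), τ (g • a) = (β * β) g • τ a := by
  haveI : Nontrivial Ω := ⟨o, o', ho⟩
  have hn : (2 : ℤ) ≤ Fintype.card Ω := by exact_mod_cast Fintype.one_lt_card
  obtain ⟨N, l, e1, e2, e3, -⟩ := hA.des h2 ho h01
  obtain ⟨N₂, l₂, e4, e5, e6, -⟩ := hA.tr.des h2 ho fun a b => h01 b a
  have r1 := hA.row h2 ho
  have c1 := hA.col h2 ho
  have r2 : Aᵀ * J Ω = (∑ b, A o b) • J Ω := by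
    have := congrArg transpose c1
    rwa [transpose_mul, transpose_smul, J_tr] at this
  have c2 : J Ω * Aᵀ = (∑ b, A o b) • J Ω := by
    have := congrArg transpose r1
    rwa [transpose_mul, transpose_smul, J_tr] at this
  have e7 : ∑ b, Aᵀ o b = ∑ b, A o b := by
    simpa [J_apply] using congrFun (congrFun ((hA.tr.row h2 ho).symm.trans r2) o) o
  rw [e7] at e5 e6
  rw [transpose_transpose] at e4
  have hk0 : ∑ b, A o b ≠ 0 := fun h => by
    rw [h, isCoprime_zero_left, Int.isUnit_iff] at hk; omega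
  have hkn : ∑ b, A o b ≠ Fintype.card Ω := fun h => by
    rw [h, isCoprime_self, Int.isUnit_iff] at hk; omega
  obtain ⟨b₁, hb₁⟩ : ∃ b, A o b = 1 := by
    by_contra! h
    exact hk0 (Finset.sum_eq_zero fun b _ => (h01 o b).resolve_right (h b))
  obtain ⟨b₀, hb₀⟩ : ∃ b, A o b = 0 := by
    by_contra! h
    exact hkn (by rw [Finset.sum_congr rfl fun b _ => (h01 o b).resolve_left (h b)]; simp)
  generalize ∑ b, A o b = k at *
  set n : ℤ := (Fintype.card Ω : ℤ) with hn'
  obtain rfl : l₂ = l := mul_right_cancel₀ (show n - 1 ≠ 0 by omega) (by linear_combination e3 - e6 + e2 - e5)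
  obtain rfl : N₂ = N := by omega
  have hN : N₂ ≠ 0 := by
    rintro rfl
    exact hkn (mul_left_cancel₀ hk0 (by rw [zero_add] at e2; subst e2; linear_combination e3))
  set C := orb (β * β) o o
  have hC : Inv (β * β) C := orb_inv _ _ _
  have hC01 := orb_01 (β * β) o o
  obtain ⟨N', l', f1, f2, f3, f4⟩ := hC.des h2 ho hC01
  have r3 := hC.row h2 ho
  have f5 := sum_le hC01 o
  have f6 : 1 ≤ ∑ b, C o b := by
    have : C o o = 1 := if_pos ⟨1, by simp, by simp⟩
    rw [← this]
    exact Finset.single_le_sum (f := fun b => C o b)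
      (fun b _ => by rcases hC01 o b with h | h <;> simp [C, h]) (Finset.mem_univ o)
  have f7 : ∑ b, C o b ≠ n := fun h => by
    have h1 : ∀ b, C o b = 1 := fun b => by
      have := (Finset.sum_eq_sum_iff_of_le (s := Finset.univ) (f := C o) (g := fun _ => 1) fun b _ => by
        rcases hC01 o b with h | h <;> simp [C, h]).mp (by simp [h, hn'])
      exact this b (Finset.mem_univ b)
    have h3 : A * A = (A * A) o o • J Ω := by
      ext a b
      obtain ⟨x, rfl⟩ := trans h2 ho o a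
      have h4 := h1 (((β * β) x)⁻¹ • b)
      obtain ⟨g, g1, g2⟩ : ∃ g : G, g • o = o ∧ (β * β) g • o = ((β * β) x)⁻¹ • b := by
        by_contra h5
        simp only [C, orb, of_apply, if_neg h5] at h4
        exact zero_ne_one h4
      have := hA.mul hA (x * g) o o
      rw [mul_smul, g1, map_mul, mul_smul, g2, smul_inv_smul] at this
      simp [J_apply, this]
    have h4 : A * A * Aᵀ = A * (A * Aᵀ) := Matrix.mul_assoc _ _ _
    rw [h3, e1, Matrix.smul_mul, c2, Matrix.mul_add, Matrix.mul_smul, Matrix.mul_smul, r1,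
      Matrix.mul_one] at h4
    have h5 := congrFun (congrFun h4 o) b₁
    have h6 := congrFun (congrFun h4 o) b₀
    simp only [J_apply, Matrix.add_apply, Matrix.smul_apply, smul_eq_mul, hb₁, hb₀] at h5 h6
    exact hN (by linear_combination h6 - h5)
  have hM : Inv β (Aᵀ * C) := by simpa using hA.tr.mul hC
  obtain ⟨x, y, hxy⟩ : ∃ x y : ℤ, Aᵀ * C = x • A + y • J Ω := by
    generalize Aᵀ * C = M at hM
    obtain ⟨u, w, e⟩ := Inv.one h2 ho (M := M * Aᵀ) (inv_mul_cancel β ▸ hM.mul hA.tr)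
    have h4 : M * Aᵀ * A = M * (Aᵀ * A) := Matrix.mul_assoc _ _ _
    rw [e, e4, Matrix.add_mul, Matrix.smul_mul, Matrix.smul_mul, c1, Matrix.mul_add, Matrix.mul_smul,
      Matrix.mul_smul, hM.row h2 ho, Matrix.mul_one, Matrix.one_mul] at h4
    refine ⟨M o b₁ - M o b₀, M o b₀, ?_⟩
    ext a b
    have h5 := congrFun (congrFun h4 o) b₁
    have h6 := congrFun (congrFun h4 o) b₀
    have h7 := congrFun (congrFun h4 a) b
    simp only [J_apply, Matrix.add_apply, Matrix.smul_apply, smul_eq_mul, hb₁, hb₀] at h5 h6 h7 ⊢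
    exact mul_left_cancel₀ hN (by linear_combination h6 - h7 + A a b * (h5 - h6))
  have g1 : Aᵀ * C * J Ω = Aᵀ * (C * J Ω) := Matrix.mul_assoc _ _ _
  rw [hxy, r3, Matrix.add_mul, Matrix.smul_mul, Matrix.smul_mul, r1, J_mul_J, Matrix.mul_smul, r2] at g1
  have g2 := congrFun (congrFun g1 o) o
  simp only [J_apply, Matrix.add_apply, Matrix.smul_apply, smul_eq_mul, mul_one] at g2
  have g3 : Aᵀ * C * (Aᵀ * C)ᵀ = Aᵀ * (C * Cᵀ) * A := by
    simp only [transpose_mul, transpose_transpose, Matrix.mul_assoc]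
  rw [hxy, f1] at g3
  simp only [transpose_add, transpose_smul, J_tr, Matrix.add_mul, Matrix.mul_add, Matrix.smul_mul,
    Matrix.mul_smul, Matrix.mul_one, e1, e4, r1, r2, c1, c2, J_mul_J, smul_add, smul_smul,
    add_assoc, ← add_smul] at g3
  have g4 : x * x = N' := mul_right_cancel₀ hN (by linear_combination (cmp ho g3).1)
  have hJ : Inv (β * β) (J Ω - C) := fun g a b => by simp only [Matrix.sub_apply, J_apply, hC g a b]
  have hJ1 : ∑ b, (J Ω - C) o b = n - ∑ b, C o b := by simp [J_apply, hn']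
  rcases eq_or_ne (∑ b, C o b) 1 with h | h
  · exact hC.exists_fun h2 ho hC01 h
  refine hJ.exists_fun h2 ho (fun a b => by rcases hC01 a b with h | h <;> simp [C, J_apply, h]) ?_
  rw [hJ1]
  generalize ∑ b, C o b = c at *
  obtain ⟨t, ht⟩ : n ∣ c - x := hk.symm.dvd_of_dvd_mul_right ⟨y, by linear_combination -g2⟩
  have t1 : x ≤ x * x := by nlinarith
  have t2 : -x ≤ x * x := by nlinarith
  have t3 : 0 ≤ t := by nlinarith
  have t4 : t < 2 := by
    by_contra! h'
    have : n * 2 ≤ n * t := by nlinarith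
    omega
  interval_cases t
  · obtain rfl : c = x := by omega
    have : l' = 0 := mul_right_cancel₀ (show n ≠ 0 by omega) (by linear_combination g4 - f3)
    exact absurd (mul_left_cancel₀ (show c ≠ 0 by omega) (by linear_combination g4 + f2 - this)) h
  · obtain rfl : x = c - n := by omega
    have : l' = 2 * c - n := mul_right_cancel₀ (show n ≠ 0 by omega) (by linear_combination g4 - f3)
    exact mul_left_cancel₀ (show n - c ≠ 0 by omega) (by linear_combination g4 + f2 - this)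

omit h2 ho [DecidableEq Ω] in
theorem exists_twist (h : IsMultiplyPretransitive G Ω 2) (α : MulAut G) (hα : Odd (orderOf α)) (o ω : Ω)
    (hk : (Nat.card {b | ∃ g : G, g • o = o ∧ α g • ω = b}).Coprime (Fintype.card Ω)) :
    ∃ τ : Equiv.Perm Ω, ∀ (g : G) (a : Ω), τ (g • a) = α g • τ a := by
  classical
  rcases subsingleton_or_nontrivial Ω with h0 | h0
  · exact ⟨1, fun _ _ => Subsingleton.elim _ _⟩
  obtain ⟨o', ho⟩ := exists_ne o
  obtain ⟨τ, hτ⟩ := exists_sq (fun a b c d => is_two_pretransitive_iff.mp h) ho.symm (orb_inv α o ω)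
    (orb_01 α o ω) (by
      rw [← Nat.isCoprime_iff_coprime] at hk
      convert hk
      simp only [orb, of_apply, Finset.sum_boole, Nat.card_eq_fintype_card, Fintype.card_subtype]
      congr!)
  obtain ⟨j, hj⟩ := hα
  have key : ∀ (i : ℕ) (g : G) (a : Ω), (τ ^ i) (g • a) = ((α * α) ^ i) g • (τ ^ i) a := fun i => by
    induction i with
    | zero => intro g a; rfl
    | succ i ih => intro g a; rw [pow_succ', pow_succ', Equiv.Perm.mul_apply, ih, hτ]; rfl
  refine ⟨τ ^ (j + 1), fun g a => ?_⟩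
  rw [key, ← sq, ← pow_mul, show 2 * (j + 1) = orderOf α + 1 by omega, pow_succ, pow_orderOf_eq_one, one_mul]

end Cfsg.Agent.FGS.TwoTr
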